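import Cfsg.Agent.Helper28.Y5D4.Data

set_option autoImplicit false

namespace Cfsg.Agent.Helper28.Y5D4

theorem rows_0 : Cfsg.Agent.Helper28.ptChunk (Cfsg.Agent.Helper28.rowChk D) 27 512 0 = true := by decide +kernel

end Cfsg.Agent.Helper28.Y5D4
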